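import Cfsg.Agent.H8.ON.E4
set_option Elab.async false
set_option maxRecDepth 100000
set_option maxHeartbeats 0
namespace H8.ON
open H7
universe u

theorem e_ON2_5 : erun 122760 14 N_ON R_Q2 iv_Q2 8 hs_ON2 (stK (ones 122760) (mkK 122760 (ones 122760) [0,1,2,3,4,5,6,7]))
  [.rel 70 5, .rel 70 7, .rel 25 9, .rel 25 1, .rel 25 3, .rel 25 7, .rel 26 9, .rel 26 1, .rel 26 3, .rel 26 7, .rel 28 0, .rel 28 3, .rel 28 6, .rel 29 0, .rel 29 3, .rel 35 10, .rel 35 1, .rel 35 4, .rel 35 7, .rel 36 10, .rel 36 4, .rel 6 0, .rel 30 0, .rel 6 1, .rel 6 0, .rel 23 3, .rel 30 0, .rel 23 3, .rel 23 2, .rel 30 0, .rel 30 1, .rel 60 1, .rel 61 0, .rel 28 3, .rel 35 7, .rel 48 1, .rel 49 0, .rel 60 0, .rel 61 1, .orb [0,1,2,3,4,5] [[3],[5],[0,1],[2,3,4,3,2,1,3,2,3,2,1,0,4,5,2,3,0,1,2,3,4,2,3,1,2,3,4,3,1,2],[2,1,3,2,3,2,1,4,3,2,1,0,3,2,1,5,2,5,3,4,0,1,2,3,1,2,3,4,1,2,3,2,0]]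 6384 32 7 4, .rel 60 1, .rel 61 0, .rel 74 3, .rel 74 1, .rel 77 3, .rel 77 1, .rel 83 3, .rel 83 1, .rel 84 3, .rel 84 1, .rel 90 3, .rel 90 1, .rel 57 1, .rel 58 1, .rel 69 1, .rel 70 1, .rel 6 1, .rel 6 0, .rel 74 2, .rel 23 3, .rel 30 0, .rel 60 1, .rel 61 0, .rel 57 1, .rel 58 1, .rel 69 0, .rel 14 0]
  D_ON2_4 K_ON2_4 = true := by decide +kernel
theorem r_ON2_5 : Run.{u} 122760 N_ON R_Q2 0 (bit 0) (mkK 122760 (bit 0) [0,1,2,3,4,5]) (ones 122760) (mkK 122760 (ones 122760) [0,1,2,3,4,5,6,7]) := r_ON2_4.trans (Run.of_cert ok_ON (by decide +kernel) inv_Q2 hh_ON2 e_ON2_5 0)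

theorem ui_ON2 : UI.{u} R_Q2 [0,1,2,3,4,5,6,7] (sing [0,1,2,3,4,5]) 122760 :=
  UI.of_run (kp := 14) (O := (ones 122760)) ok_ON (by decide +kernel) rels_ON2 r_ON2_5 (by decide +kernel)

theorem ub_ON2 : UB.{u} R_Q2 [0,1,2,3,4,5,6,7] 460815505920 :=
  (ui_ON2.mul (UI.ren (S := [0,1,2,3,4,5]) (W := []) ub_P imp_Q2_P_158 (by decide +kernel) rfl) (by decide +kernel) (by decide +kernel)).le (by decide +kernel)

end H8.ON
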