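import Cfsg.Agent.H8.ON.E5
import Cfsg.Prelude.Def_Spor_ON
set_option Elab.async false
set_option maxRecDepth 100000
set_option maxHeartbeats 0
namespace H8.ON
open H7
universe u

theorem ub_ON0 : UB.{u} R_Q0 [0,1,2,3,4,5,6,7] 460815505920 := ub_ON2.der der_Q02

def idx_ON : Cfsg.Spor.ON.Gen → ℕ
  | .a => 0
  | .b => 1
  | .c => 2
  | .d => 3
  | .e => 4
  | .f => 5
  | .g => 6
def all_ON : List Cfsg.Spor.ON.Gen := [.a, .b, .c, .d, .e, .f, .g]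
theorem hall_ON : ∀ x, x ∈ all_ON := by intro x; cases x <;> decide
def L_ON : List (FreeGroup Cfsg.Spor.ON.Gen) := [Cfsg.Spor.ON.a, Cfsg.Spor.ON.b, Cfsg.Spor.ON.c, Cfsg.Spor.ON.d, Cfsg.Spor.ON.e, Cfsg.Spor.ON.f, Cfsg.Spor.ON.g, (Cfsg.Spor.ON.g)⁻¹]
theorem let_ON : letOK Cfsg.Spor.ON.edges all_ON L_ON idx_ON iv_Q0 = true := by decide +kernel
def R0_ON : List (List ℕ) := [[0,0],[0,1,0,1,0,1],[0,2,0,2],[0,3,0,3],[0,4,0,4],[0,5,0,5],[1,0,1,0,1,0],[1,1],[1,2,1,2,1,2],[1,3,1,3],[1,4,1,4],[1,5,1,5],[2,0,2,0],[2,1,2,1,2,1],[2,2],[2,3,2,3,2,3,2,3,2,3,2,3,2,3,2,3],[2,4,2,4],[2,5,2,5],[3,0,3,0],[3,1,3,1],[3,2,3,2,3,2,3,2,3,2,3,2,3,2,3,2],[3,3],[3,4,3,4,3,4],[3,5,3,5],[4,0,4,0],[4,1,4,1],[4,2,4,2],[4,3,4,3,4,3],[4,4],[4,5,4,5,4,5],[5,0,5,0],[5,1,5,1],[5,2,5,2],[5,3,5,3],[5,4,5,4,5,4],[5,5],[0,5,7,7],[0,5,3,2,3,2,3,2,3,2],[2,7,3,7,3,2,3,6,3,6],[3,7,2,7,2,3,2,6,2,6],[1,2,3,6,1,2,3,6,1,2,3,6,1,2,3,6,1,2,3,6],[6,1,2,6,2,1,6,1,2,6,2],[6,4,3,6,3,4,6,4,3,6,3]]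
theorem R0_ON_eq : (relL Cfsg.Spor.ON.edges Cfsg.Spor.ON.extra).map (trW idx_ON iv_Q0) = R0_ON := by decide +kernel

theorem der0_ON : Der.{u} R_Q0 R0_ON := Der.of_cert (c := [(0,0),(8,0),(9,0),(10,0),(11,0),(12,0),(8,1),(1,0),(13,0),(14,0),(15,0),(16,0),(9,1),(13,1),(2,0),(17,0),(18,0),(19,0),(10,1),(14,1),(17,1),(3,0),(20,0),(21,0),(11,1),(15,1),(18,1),(20,1),(4,0),(22,0),(12,1),(16,1),(19,1),(21,1),(22,1),(5,0),(23,0),(24,0),(25,0),(26,0),(27,0),(28,0),(29,0)]) (by decide +kernel)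

noncomputable def M_ON : Mdl Cfsg.Spor.ON := Mdl.ofPres Cfsg.Spor.ON.edges Cfsg.Spor.ON.extra L_ON idx_ON iv_Q0 122760 NL_ON okL_ON
  rels_ON inv_Q0 (by intro x; cases x <;> decide) (R0_ON_eq ▸ der0_ON) (by decide +kernel) rfl

theorem rels_ON_ : Rels M_ON.gs R_Q0 :=
  Der.of_cert (c := [(0,0),(7,0),(14,0),(21,0),(28,0),(35,0),(43,0),(43,1),(1,0),(2,0),(3,0),(4,0),(5,0),(8,0),(9,0),(10,0),(11,0),(15,0),(16,0),(17,0),(22,0),(23,0),(29,0),(36,0),(37,0),(38,0),(39,0),(40,0),(41,0),(42,0)]) (by decide +kernel) _ _ ((R0_ON_eq ▸ rels_gsP hall_ON let_ON : Rels M_ON.gs R0_ON).append (R' := [[7,6],[6,7]]) (by simp [Rels, M_ON, Mdl.ofPres, Mdl.ofList, gsP, L_ON, ← map_mul]))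

theorem gen_ON : genW M_ON.gs (sing [0,1,2,3,4,5,6,7]) = ⊤ :=
  gen_gsP hall_ON let_ON _ fun x _ => gs_mem_sing (by cases x <;> decide)

theorem lb_191 : LB N_ON [[0],[1],[2],[3],[4],[5],[6],[7]] [0,15,17,20,1,2] 460815505920 :=
  (LB.of_chain (kp := 14) ok_ON (by decide +kernel) [(0,6,[[0],[1],[2],[3],[4],[5],[6],[7]]),(15,10,[[0],[1],[2],[3],[4]]),(17,6,[[0],[2],[3],[4]]),(20,4,[[0],[2],[3]]),(1,1,[[0],[2]]),(2,1,[[0]])] (by decide +kernel)).cat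
    (rels_ON.inv inv_Q0) (by decide +kernel) (c := [[0],[2],[4],[6],[8],[10],[12],[14],[0],[2],[4],[6],[8],[0],[4],[6],[8],[0],[4],[6],[0],[4],[0]]) (by decide +kernel)

theorem top_ON : Finite Cfsg.Spor.ON ∧ Nat.card Cfsg.Spor.ON = 460815505920 ∧ IsBase (⊤ : Subgroup Cfsg.Spor.ON) M_ON.sys.dec [0,15,17,20,1,2] :=
  Mdl.top_pack ub_ON0 rels_ON_ lb_191 gen_ON

theorem stab_ON_o : orbGe 122760 14 N_ON (sing [0,1,2,3,4,5,6,7]) 6 0 122760 = true := by decide +kernel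
theorem stab_ON : genW M_ON.gs (sing [0,1,2,3,4,5]) = MulAction.stabilizer _ (M_ON.sys.dec 0) ∧ (genW M_ON.gs (sing [0,1,2,3,4,5])).index = 122760 :=
  Mdl.stab_eq (ui_ON2.top (der_Q02 _ _ rels_ON_) gen_ON) (by decide +kernel) (Mdl.genW_le_stab (by decide +kernel)) stab_ON_o

theorem mc_ON_0 : band (Nat.blt 1 122760) (band (tb (wapp N_ON [6] (bit 0)) 1) (sub (ones 122760) (growN N_ON ([6] :: [[0],[1],[2],[3],[4],[5]]) 8 (bit 0)))) = true := by decide +kernel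

theorem mc_ON_1 : band (Nat.blt 10 122760) (band (tb (wapp N_ON [6,1,6] (bit 0)) 10) (sub (ones 122760) (growN N_ON ([6,1,6] :: [[0],[1],[2],[3],[4],[5]]) 9 (bit 0)))) = true := by decide +kernel

theorem mc_ON_2 : band (Nat.blt 15 122760) (band (tb (wapp N_ON [6,2,6] (bit 0)) 15) (sub (ones 122760) (growN N_ON ([6,2,6] :: [[0],[1],[2],[3],[4],[5]]) 8 (bit 0)))) = true := by decide +kernel

theorem mc_ON_3 : band (Nat.blt 32 122760) (band (tb (wapp N_ON [6,1,3,6] (bit 0)) 32) (sub (ones 122760) (growN N_ON ([6,1,3,6] :: [[0],[1],[2],[3],[4],[5]]) 7 (bit 0)))) = true := by decide +kernel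

theorem mc_ON : maxCertD 122760 N_ON (ones 122760) 0 [[0],[1],[2],[3],[4],[5]] [(1,8,[6]),(10,9,[6,1,6]),(15,8,[6,2,6]),(32,7,[6,1,3,6])] = true :=
  maxCertD_intro (by decide +kernel) (List.forall_mem_cons.2 ⟨mc_ON_0, List.forall_mem_cons.2 ⟨mc_ON_1, List.forall_mem_cons.2 ⟨mc_ON_2, List.forall_mem_cons.2 ⟨mc_ON_3, List.forall_mem_nil _⟩⟩⟩⟩) (by decide +kernel)

theorem core_ON : ∀ N : Subgroup Cfsg.Spor.ON, N.Normal → N ≤ MulAction.stabilizer _ (M_ON.sys.dec 0) → N = ⊥ :=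
  Mdl.core_bot top_ON.2.2 (W := sing [0,1,2,3,4,5,6,7]) (r := 6) (by decide +kernel)

theorem kill_aa : fixB N_ON [0,15,17,20,1,2] (rp 5 [1,6,2,7]) = true := by decide +kernel
theorem kill_ab : fixB N_ON [0,15,17,20,1,2] (rp 5 [0,1,6,2,7]) = true := by decide +kernel
theorem kill_ba : fixB N_ON [0,15,17,20,1,2] (rp 5 [2,6,1,7]) = true := by decide +kernel
theorem kill_bb : fixB N_ON [0,15,17,20,1,2] (rp 5 [1,2,6,1,7]) = true := by decide +kernel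
theorem kill_ea : fixB N_ON [0,15,17,20,1,2] (rp 5 [3,6,4,7]) = true := by decide +kernel
theorem kill_eb : fixB N_ON [0,15,17,20,1,2] (rp 5 [4,3,6,4,7]) = true := by decide +kernel
theorem kill_fa : fixB N_ON [0,15,17,20,1,2] (rp 5 [3,6,4,7]) = true := by decide +kernel
theorem kill_fb : fixB N_ON [0,15,17,20,1,2] (rp 5 [5,3,6,4,7]) = true := by decide +kernel
theorem kill_ca : fixB N_ON [0,15,17,20,1,2] (rp 5 [1,7,2,1,6]) = true := by decide +kernel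
theorem kill_cb : fixB N_ON [0,15,17,20,1,2] (rp 5 [2,1,7,2,1,6]) = true := by decide +kernel
theorem kill_da : fixB N_ON [0,15,17,20,1,2] (rp 5 [4,7,3,4,6]) = true := by decide +kernel
theorem kill_db : fixB N_ON [0,15,17,20,1,2] (rp 5 [3,4,7,3,4,6]) = true := by decide +kernel
theorem kill_g : fixB N_ON [0,15,17,20,1,2] (rp 5 [6,1,2,3]) = true := by decide +kernel
theorem coatom_ON : IsCoatom (MulAction.stabilizer Cfsg.Spor.ON (M_ON.sys.dec 0)) :=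
  Mdl.isCoatom gen_ON mc_ON (by decide +kernel) (w := [6]) (by decide +kernel)
theorem simple_ON : IsSimpleGroup Cfsg.Spor.ON := by
  have := top_ON.1
  refine Mdl.simple gen_ON coatom_ON core_ON 5 1 (by norm_num) (by rw [← stab_ON.1, stab_ON.2]; norm_num)
    (by rw [top_ON.2.1]; norm_num) fun N _ hN => ?_
  have ha := Mdl.kill top_ON.2.2 kill_aa kill_ab N hN
  have hb := Mdl.kill top_ON.2.2 kill_ba kill_bb N hN
  have he := Mdl.kill top_ON.2.2 kill_ea kill_eb N hN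
  have hf := Mdl.kill top_ON.2.2 kill_fa kill_fb N hN
  have hc := Mdl.kill top_ON.2.2 kill_ca kill_cb N hN
  have hd := Mdl.kill top_ON.2.2 kill_da kill_db N hN
  have h1 : wev M_ON.gs [6,1,2,3] ∈ N := hN _ (wev_rp M_ON.gs 5 _ ▸ Mdl.eq_one top_ON.2.2 trivial kill_g)
  have hg : M_ON.gs 6 ∈ N := by
    simp only [wev_cons, wev_nil, mul_one] at h1
    exact (N.mul_mem_cancel_right (N.mul_mem hb (N.mul_mem hc hd))).1 h1
  have hG : M_ON.gs 7 ∈ N := by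
    have := rels_ON_ [7, 6] (memW_spec (by decide +kernel))
    simp only [wev_cons, wev_nil, mul_one] at this
    rw [eq_inv_of_mul_eq_one_left this]; exact N.inv_mem hg
  simp only [List.mem_cons, List.not_mem_nil, or_false]
  rintro _ (rfl | rfl | rfl | rfl | rfl | rfl | rfl | rfl) <;> assumption

end H8.ON
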