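import Cfsg.Agent.H7.Pres4

/-! H8.ON.Pt: images of single points under long words, read from the bit planes of a few base words. -/

namespace H8.ON
open H7
universe u

noncomputable def plL (n K : ℕ) (Ns : ℕ → Net) (w : List ℕ) (k : List ℕ → Bool) (m : ℕ) : List ℕ → Bool :=
  Nat.rec (motive := fun _ => List ℕ → Bool) k (fun j ih acc => force (wapp Ns w (plN n K j)) fun p => ih (p :: acc)) m

noncomputable def plA (n K : ℕ) (Ns : ℕ → Net) (W : List (List ℕ)) : (List (List ℕ) → Bool) → Bool :=
  List.rec (motive := fun _ => (List (List ℕ) → Bool) → Bool) (fun k => k [])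
    (fun w _ ih k => plL n K Ns w (fun P => ih fun PL => k (P :: PL)) K []) W

noncomputable def ptAp (i : ℕ) (P : List ℕ) : ℕ :=
  List.rec (motive := fun _ => ℕ) 0 (fun p _ r => Nat.add (Nat.land (Nat.shiftRight p i) 1) (Nat.mul 2 r)) P

noncomputable def evP (PL : List (List ℕ)) (i : ℕ) (r : List ℕ) : ℕ :=
  List.rec (motive := fun _ => ℕ) i (fun a _ x => force x fun y => ptAp y (nthW PL a)) r

def pls (f : ℕ → ℕ) (j m : ℕ) : List ℕ := (List.range' j m).map f

theorem plL_eq (n K : ℕ) (Ns : ℕ → Net) (w : List ℕ) (k : List ℕ → Bool) (m : ℕ) (acc : List ℕ) :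
    plL n K Ns w k m acc = k (pls (fun j => wapp Ns w (plN n K j)) 0 m ++ acc) := by
  induction m generalizing acc with
  | zero => rfl
  | succ m ih =>
    have : plL n K Ns w k (m + 1) acc = force (wapp Ns w (plN n K m)) fun p => plL n K Ns w k m (p :: acc) := rfl
    rw [this, force_eq, ih]
    simp [pls, List.range'_concat]

theorem plA_eq (n K : ℕ) (Ns : ℕ → Net) (W : List (List ℕ)) (k : List (List ℕ) → Bool) :
    plA n K Ns W k = k (W.map fun w => pls (fun j => wapp Ns w (plN n K j)) 0 K) := by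
  induction W generalizing k with
  | nil => rfl
  | cons w W ih =>
    have : plA n K Ns (w :: W) k = plL n K Ns w (fun P => plA n K Ns W fun PL => k (P :: PL)) K [] := rfl
    rw [this, plL_eq, ih, List.append_nil]; rfl

theorem ptAp_pls {f : ℕ → ℕ} {i x : ℕ} (m j : ℕ) (h : ∀ t < j + m, (f t).testBit i = x.testBit t) (hx : x < 2 ^ (j + m)) :
    ptAp i (pls f j m) = x / 2 ^ j := by
  induction m generalizing j with
  | zero => exact (Nat.div_eq_of_lt hx).symm
  | succ m ih =>
    have : ptAp i (pls f j (m + 1)) = (f j >>> i &&& 1) + 2 * ptAp i (pls f (j + 1) m) := rfl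
    rw [this, ih (j + 1) (fun t ht => h t (by omega)) (by rwa [add_right_comm]), Nat.and_one_is_mod,
      Nat.shiftRight_eq_div_pow, pow_succ, ← Nat.div_div_eq_div_mul]
    have h1 := h j (by omega)
    rw [Nat.testBit_eq_decide_div_mod_eq, Nat.testBit_eq_decide_div_mod_eq, decide_eq_decide] at h1
    omega

theorem nthW_map (f : List ℕ → List ℕ) (W : List (List ℕ)) {a : ℕ} (h : a < W.length) : nthW (W.map f) a = f (nthW W a) := by
  induction W generalizing a with
  | nil => cases h
  | cons w W ih =>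
    cases a with
    | zero => rfl
    | succ a => exact ih (Nat.lt_of_succ_lt_succ h)

theorem evP_spec {n K : ℕ} {Ns : ℕ → Net} (ok : ∀ a, (Ns a).ok n = true) (hK : n ≤ 2 ^ K) (W : List (List ℕ)) {i : ℕ}
    (hi : i < n) (r : List ℕ) (hr : ∀ a ∈ r, a < W.length) :
    evP (W.map fun w => pls (fun j => wapp Ns w (plN n K j)) 0 K) i r = wev (fun a => wperm Ns (nthW W a)) r i ∧
      wev (fun a => wperm Ns (nthW W a)) r i < n := by
  induction r with
  | nil => exact ⟨rfl, hi⟩
  | cons a r ih =>
    obtain ⟨h1, h2⟩ := ih fun b hb => hr b (List.mem_cons_of_mem _ hb)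
    have h3 := wperm_lt ok (nthW W a) h2
    refine ⟨?_, by rw [wev_cons]; exact h3⟩
    have : ∀ PL, evP PL i (a :: r) = force (evP PL i r) fun y => ptAp y (nthW PL a) := fun _ => rfl
    rw [this, force_eq, h1, nthW_map _ _ (hr a List.mem_cons_self), wev_cons, Equiv.Perm.mul_apply,
      ptAp_pls K 0 (fun t ht => ?_) (by simpa using h3.trans_le hK), pow_zero, Nat.div_one]
    have e : plN n K t = idP K t % 2 ^ n := congrArg _ (Nat.one_shiftLeft _)
    rw [testBit_wapp ok, e, Nat.testBit_mod_two_pow, testBit_idP (by omega)]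
    simp [h3, h3.trans_le hK]

/-- every word of `R` in the letters `W` fixes the points `bs` -/
noncomputable def fixP (n K : ℕ) (Ns : ℕ → Net) (W : List (List ℕ)) (bs : List ℕ) (R : List (List ℕ)) : Bool :=
  band (ltAll W.length R) (band (allL (fun b => Nat.blt b n) bs)
    (plA n K Ns W fun PL => allL (fun r => allL (fun b => Nat.beq (evP PL b r) b) bs) R))

theorem rels_of_fixP {G : Type u} [Group G] {M : Mdl G} {bs : List ℕ} (hB : IsBase (⊤ : Subgroup G) M.sys.dec bs) {K : ℕ}
    (hK : M.n ≤ 2 ^ K) {W R : List (List ℕ)} (h : fixP M.n K M.Ns W bs R = true) :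
    Rels (fun a => wev M.gs (nthW W a)) R := fun r hr => hB _ trivial fun b hb => by
  simp only [fixP, plA_eq, ltAll, band_eq, Bool.and_eq_true, allL_iff, Nat.blt_eq, Nat.beq_eq] at h
  have := (evP_spec M.ok hK W (h.2.1 b hb) r (h.1 r hr)).1.symm.trans (h.2.2 r hr b hb)
  refine Eq.trans ?_ this
  rw [Mdl.smul_def, map_wev]
  simp only [M.rho_wev]
  rfl

end H8.ON
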