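import Cfsg.Agent.H8.ON.F0
import Cfsg.Agent.H8.ON.Pt
import Cfsg.Agent.H8.SJ1
import Cfsg.Agent.H8.Mathieu
import Cfsg.Agent.H8.Simp
set_option Elab.async false
set_option maxRecDepth 100000
set_option maxHeartbeats 0
namespace H8.ON
open H7
universe u

theorem wev_flat {G : Type*} [Group G] (gs : ℕ → G) (I : List (List ℕ)) (r : List ℕ) :
    wev gs (r.flatMap (nthW I)) = wev (fun y => wev gs (nthW I y)) r := by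
  induction r with
  | nil => rfl
  | cons a r ih => rw [List.flatMap_cons, wev_append, ih, wev_cons]

theorem sub_of {Q : Type} [Group Q] [Finite Q] [IsSimpleGroup Q] {X : Type} [MulAction Q X] {n k m : ℕ} {pt : ℕ → X} {T : Tr ℕ}
    {RL : Tr (List ℕ)} {Ls : List Lev} (S : Std Q n k m pt T RL Ls) {W I R : List (List ℕ)}
    (h : fixP 122760 17 N_ON W [0,15,17,20,1,2] R = true) (h1 : RL.all (fun r => memW (r.flatMap (nthW I)) R) = true) {y i : ℕ} (hy : y < topN Ls)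
    (h2 : tb (wapp N_ON ((nthW I y).flatMap (nthW W)) (bit i)) i = false) : ∃ φ : Q →* Cfsg.Spor.ON, Function.Injective φ := by
  have := top_ON.1
  have h3 := rels_of_fixP top_ON.2.2 (K := 17) (by decide +kernel) h
  obtain ⟨φ, hφ⟩ := S.hom (fun y => wev (fun a => wev M_ON.gs (nthW W a)) (nthW I y)) fun i =>
    (wev_flat _ I _).symm.trans (h3 _ (memW_spec (Tr.all_get h1 i)))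
  refine ⟨φ, (MonoidHom.ker_eq_bot_iff φ).1 ((IsSimpleGroup.eq_bot_or_eq_top_of_normal φ.ker inferInstance).resolve_right fun e => ?_)⟩
  exact Mdl.ne_one (M := M_ON) h2 ((wev_flat _ W _).trans ((hφ y hy).symm.trans (e.ge trivial : S.lets.e y ∈ φ.ker)))

def W_J1 : List (List ℕ) := [[2],[1,6,3,6,4,5,2,3,4,1,2,3,1],[1,3,2,1,4,3,2,5,4,7,3,7,1]]
def I_J1 : List (List ℕ) := [[0,1,0,1,0,2,0,2,0,1,0,2,0,1,0,1,0,2,0,1,0,1],[2,0,2,0,1,0,2,0,2,0,1,0,2,0,1,0,1,0,2,0,2,0],[1,0,1,0,2,0,2,0,1,0,2,0,2,0,1,0,2,0,1,0,2,0,2,0,1,0,2],[1,0,2,0,1,0,2]]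
def R_J1 : List (List ℕ) := [[1,0,2,0,1,0,2,0,1,0,1,0,2,0,2,0,1,0,2,0,1,0,1,0,2,0,1,0,1,1,0,1,0,2,0,2,0,1,0,2,0,2,0,1,0,2,0,1,0,2,0,2,0,1,0,2,1,0,2,0,1,0,2,0,1,0,1,0,2,0,2,0,1,0,2,0,1,0,1,0,2,0,1,0,1,1,0,1,0,2,0,2,0,1,0,2,0,2,0,1,0,2,0,1,0,2,0,2,0,1,0,2,1,0,2,0,1,0,2,0,1,0,1,0,2,0,2,0,1,0,2,0,1,0,1,0,2,0,1,0,1,1,0,1,0,2,0,2,0,1,0,2,0,2,0,1,0,2,0,1,0,2,0,2,0,1,0,2],[0,1,0,1,0,2,0,2,0,1,0,2,0,1,0,1,0,2,0,1,0,1,2,0,2,0,1,0,2,0,2,0,1,0,2,0,1,0,1,0,2,0,2,0],[1,0,1,0,2,0,2,0,1,0,2,0,2,0,1,0,2,0,1,0,2,0,2,0,1,0,2,0,1,0,1,0,2,0,2,0,1,0,2,0,1,0,1,0,2,0,1,0,1,1,0,1,0,2,0,2,0,1,0,2,0,2,0,1,0,2,0,1,0,2,0,2,0,1,0,2,0,1,0,1,0,2,0,2,0,1,0,2,0,1,0,1,0,2,0,1,0,1,1,0,1,0,2,0,2,0,1,0,2,0,2,0,1,0,2,0,1,0,2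,0,2,0,1,0,2,0,1,0,1,0,2,0,2,0,1,0,2,0,1,0,1,0,2,0,1,0,1,1,0,1,0,2,0,2,0,1,0,2,0,2,0,1,0,2,0,1,0,2,0,2,0,1,0,2,0,1,0,1,0,2,0,2,0,1,0,2,0,1,0,1,0,2,0,1,0,1,1,0,1,0,2,0,2,0,1,0,2,0,2,0,1,0,2,0,1,0,2,0,2,0,1,0,2,0,1,0,1,0,2,0,2,0,1,0,2,0,1,0,1,0,2,0,1,0,1],[0,1,0,1,0,2,0,2,0,1,0,2,0,1,0,1,0,2,0,1,0,1,0,1,0,1,0,2,0,2,0,1,0,2,0,1,0,1,0,2,0,1,0,1,0,1,0,1,0,2,0,2,0,1,0,2,0,1,0,1,0,2,0,1,0,1,0,1,0,1,0,2,0,2,0,1,0,2,0,1,0,1,0,2,0,1,0,1,0,1,0,1,0,2,0,2,0,1,0,2,0,1,0,1,0,2,0,1,0,1,1,0,1,0,2,0,2,0,1,0,2,0,2,0,1,0,2,0,1,0,2,0,2,0,1,0,2,0,1,0,1,0,2,0,2,0,1,0,2,0,1,0,1,0,2,0,1,0,1,1,0,1,0,2,0,2,0,1,0,2,0,2,0,1,0,2,0,1,0,2,0,2,0,1,0,2,2,0,2,0,1,0,2,0,2,0,1,0,2,0,1,0,1,0,2,0,2,0,1,0,1,0,2,0,2,0,1,0,2,0,2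,0,1,0,2,0,1,0,2,0,2,0,1,0,2],[0,1,0,1,0,2,0,2,0,1,0,2,0,1,0,1,0,2,0,1,0,1,1,0,1,0,2,0,2,0,1,0,2,0,2,0,1,0,2,0,1,0,2,0,2,0,1,0,2,0,1,0,1,0,2,0,2,0,1,0,2,0,1,0,1,0,2,0,1,0,1,0,1,0,1,0,2,0,2,0,1,0,2,0,1,0,1,0,2,0,1,0,1,1,0,2,0,1,0,2,0,1,0,1,0,2,0,2,0,1,0,2,0,1,0,1,0,2,0,1,0,1,1,0,1,0,2,0,2,0,1,0,2,0,2,0,1,0,2,0,1,0,2,0,2,0,1,0,2,0,1,0,1,0,2,0,2,0,1,0,2,0,1,0,1,0,2,0,1,0,1,0,1,0,1,0,2,0,2,0,1,0,2,0,1,0,1,0,2,0,1,0,1,1,0,2,0,1,0,2,0,1,0,1,0,2,0,2,0,1,0,2,0,1,0,1,0,2,0,1,0,1,1,0,1,0,2,0,2,0,1,0,2,0,2,0,1,0,2,0,1,0,2,0,2,0,1,0,2,0,1,0,1,0,2,0,2,0,1,0,2,0,1,0,1,0,2,0,1,0,1,0,1,0,1,0,2,0,2,0,1,0,2,0,1,0,1,0,2,0,1,0,1,1,0,2,0,1,0,2],[0,1,0,1,0,2,0,2,0,1,0,2,0,1,0,1,0,2,0,1,0,1,0,1,0,1,0,2,0,2,0,1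,0,2,0,1,0,1,0,2,0,1,0,1,0,1,0,1,0,2,0,2,0,1,0,2,0,1,0,1,0,2,0,1,0,1,0,1,0,1,0,2,0,2,0,1,0,2,0,1,0,1,0,2,0,1,0,1,0,1,0,1,0,2,0,2,0,1,0,2,0,1,0,1,0,2,0,1,0,1,0,1,0,1,0,2,0,2,0,1,0,2,0,1,0,1,0,2,0,1,0,1,0,1,0,1,0,2,0,2,0,1,0,2,0,1,0,1,0,2,0,1,0,1,0,1,0,1,0,2,0,2,0,1,0,2,0,1,0,1,0,2,0,1,0,1,0,1,0,1,0,2,0,2,0,1,0,2,0,1,0,1,0,2,0,1,0,1,0,1,0,1,0,2,0,2,0,1,0,2,0,1,0,1,0,2,0,1,0,1],[2,0,2,0,1,0,2,0,2,0,1,0,2,0,1,0,1,0,2,0,2,0,2,0,2,0,1,0,2,0,2,0,1,0,2,0,1,0,1,0,2,0,2,0,1,0,1,0,2,0,2,0,1,0,2,0,2,0,1,0,2,0,1,0,2,0,2,0,1,0,2,1,0,2,0,1,0,2,1,0,1,0,2,0,2,0,1,0,2,0,2,0,1,0,2,0,1,0,2,0,2,0,1,0,2,0,1,0,1,0,2,0,2,0,1,0,2,0,1,0,1,0,2,0,1,0,1,0,1,0,1,0,2,0,2,0,1,0,2,0,1,0,1,0,2,0,1,0,1,1,0,2,0,1,0,2,2,0,2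,0,1,0,2,0,2,0,1,0,2,0,1,0,1,0,2,0,2,0,1,0,2,0,1,0,2,0,1,0,1,0,2,0,2,0,1,0,2,0,1,0,1,0,2,0,1,0,1,1,0,2,0,1,0,2,2,0,2,0,1,0,2,0,2,0,1,0,2,0,1,0,1,0,2,0,2,0,1,0,2,0,1,0,2,0,1,0,1,0,2,0,2,0,1,0,2,0,1,0,1,0,2,0,1,0,1,1,0,2,0,1,0,2],[2,0,2,0,1,0,2,0,2,0,1,0,2,0,1,0,1,0,2,0,2,0,2,0,2,0,1,0,2,0,2,0,1,0,2,0,1,0,1,0,2,0,2,0,1,0,1,0,2,0,2,0,1,0,2,0,2,0,1,0,2,0,1,0,2,0,2,0,1,0,2,2,0,2,0,1,0,2,0,2,0,1,0,2,0,1,0,1,0,2,0,2,0,2,0,2,0,1,0,2,0,2,0,1,0,2,0,1,0,1,0,2,0,2,0,1,0,2,0,1,0,2,0,1,0,1,0,2,0,2,0,1,0,2,0,1,0,1,0,2,0,1,0,1,1,0,2,0,1,0,2,2,0,2,0,1,0,2,0,2,0,1,0,2,0,1,0,1,0,2,0,2,0,2,0,2,0,1,0,2,0,2,0,1,0,2,0,1,0,1,0,2,0,2,0,1,0,1,0,2,0,2,0,1,0,2,0,2,0,1,0,2,0,1,0,2,0,2,0,1,0,2,2,0,2,0,1,0,2,0,2,0,1,0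,2,0,1,0,1,0,2,0,2,0,2,0,2,0,1,0,2,0,2,0,1,0,2,0,1,0,1,0,2,0,2,0,1,0,2,0,1,0,2,0,1,0,1,0,2,0,2,0,1,0,2,0,1,0,1,0,2,0,1,0,1,1,0,2,0,1,0,2],[2,0,2,0,1,0,2,0,2,0,1,0,2,0,1,0,1,0,2,0,2,0,2,0,2,0,1,0,2,0,2,0,1,0,2,0,1,0,1,0,2,0,2,0,2,0,2,0,1,0,2,0,2,0,1,0,2,0,1,0,1,0,2,0,2,0,1,0,1,0,2,0,2,0,1,0,2,0,2,0,1,0,2,0,1,0,2,0,2,0,1,0,2,1,0,2,0,1,0,2,2,0,2,0,1,0,2,0,2,0,1,0,2,0,1,0,1,0,2,0,2,0,1,0,1,0,2,0,2,0,1,0,2,0,2,0,1,0,2,0,1,0,2,0,2,0,1,0,2,2,0,2,0,1,0,2,0,2,0,1,0,2,0,1,0,1,0,2,0,2,0,1,0,1,0,2,0,2,0,1,0,2,0,2,0,1,0,2,0,1,0,2,0,2,0,1,0,2,2,0,2,0,1,0,2,0,2,0,1,0,2,0,1,0,1,0,2,0,2,0,1,0,2,0,1,0,2,0,1,0,1,0,2,0,2,0,1,0,2,0,1,0,1,0,2,0,1,0,1,0,1,0,1,0,2,0,2,0,1,0,2,0,1,0,1,0,2,0,1,0,1,1,0,1,0,2,0,2,0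,1,0,2,0,2,0,1,0,2,0,1,0,2,0,2,0,1,0,2,2,0,2,0,1,0,2,0,2,0,1,0,2,0,1,0,1,0,2,0,2,0,1,0,2,0,1,0,2],[1,0,1,0,2,0,2,0,1,0,2,0,2,0,1,0,2,0,1,0,2,0,2,0,1,0,2,0,1,0,1,0,2,0,2,0,1,0,2,0,1,0,1,0,2,0,1,0,1,0,1,0,1,0,2,0,2,0,1,0,2,0,1,0,1,0,2,0,1,0,1,0,1,0,1,0,2,0,2,0,1,0,2,0,1,0,1,0,2,0,1,0,1,1,0,2,0,1,0,2,2,0,2,0,1,0,2,0,2,0,1,0,2,0,1,0,1,0,2,0,2,0,1,0,2,0,1,0,2,0,1,0,1,0,2,0,2,0,1,0,2,0,1,0,1,0,2,0,1,0,1,1,0,2,0,1,0,2,2,0,2,0,1,0,2,0,2,0,1,0,2,0,1,0,1,0,2,0,2,0,2,0,2,0,1,0,2,0,2,0,1,0,2,0,1,0,1,0,2,0,2,0,2,0,2,0,1,0,2,0,2,0,1,0,2,0,1,0,1,0,2,0,2,0,1,0,1,0,2,0,2,0,1,0,2,0,2,0,1,0,2,0,1,0,2,0,2,0,1,0,2,1,0,2,0,1,0,2,1,0,1,0,2,0,2,0,1,0,2,0,2,0,1,0,2,0,1,0,2,0,2,0,1,0,2,1,0,2,0,1,0,2],[1,0,1,0,2,0,2,0,1,0,2,0,2,0,1,0,2,0,1,0,2,0,2,0,1,0,2,1,0,1,0,2,0,2,0,1,0,2,0,2,0,1,0,2,0,1,0,2,0,2,0,1,0,2],[1,0,2,0,1,0,2,1,0,2,0,1,0,2]]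
theorem fx_J1 : fixP 122760 17 N_ON W_J1 [0,15,17,20,1,2] R_J1 = true := by decide +kernel
theorem emb_J1 : ∃ φ : J1.P →* Cfsg.Spor.ON, Function.Injective φ :=
  have := J1.simple
  sub_of J1.std fx_J1 (I := I_J1) (by decide +kernel) (y := 3) (i := 0) (by decide +kernel) (by decide +kernel)

def W_M11 : List (List ℕ) := [[2],[1,7,3,4,2,3,1],[1,3,2,4,3,6,1]]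
def I_M11 : List (List ℕ) := [[0,2,2,0,1,1,0,1,0,1],[2,0,2,0,2,2,0,1,1,0],[2,2,0,1,0,1,0,2],[1,0,2,0,2,0,1,1],[1,1,0,2,2],[2,2,0,2,2,2,0,1,0,1,1,0,1],[0,2,0,1,0]]
def R_M11 : List (List ℕ) := [[0,2,2,0,1,1,0,1,0,1,2,0,2,0,2,2,0,1,1,0],[0,2,2,0,1,1,0,1,0,1,0,2,2,0,1,1,0,1,0,1,0,2,2,0,1,1,0,1,0,1,0,2,2,0,1,1,0,1,0,1],[0,2,2,0,1,1,0,1,0,1,2,2,0,1,0,1,0,2,0,2,2,0,1,1,0,1,0,1,1,0,2,0,2,0,1,1],[0,2,2,0,1,1,0,1,0,1,0,2,2,0,1,1,0,1,0,1,2,2,0,1,0,1,0,2,2,2,0,1,0,1,0,2],[0,2,2,0,1,1,0,1,0,1,0,2,2,0,1,1,0,1,0,1,2,2,0,2,2,2,0,1,0,1,1,0,1,0,2,2,0,1,1,0,1,0,1,2,2,0,2,2,2,0,1,0,1,1,0,1,2,0,2,0,2,2,0,1,1,0,2,2,0,2,2,2,0,1,0,1,1,0,1],[2,2,0,1,0,1,0,2,1,0,2,0,2,0,1,1],[0,2,2,0,1,1,0,1,0,1,0,2,2,0,1,1,0,1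,0,1,1,1,0,2,2,2,2,0,1,0,1,0,2,0,2,0,1,0,2,0,2,0,2,2,0,1,1,0,1,1,0,2,2,0,2,0,1,0],[0,2,2,0,1,1,0,1,0,1,1,0,2,0,2,0,1,1,1,1,0,2,2,1,0,2,0,2,0,1,1,1,1,0,2,2,2,0,2,0,2,2,0,1,1,0,1,1,0,2,2],[1,1,0,2,2,1,1,0,2,2],[0,2,2,0,1,1,0,1,0,1,0,2,2,0,1,1,0,1,0,1,1,1,0,2,2,0,2,2,0,1,1,0,1,0,1,1,0,2,0,2,0,1,1,2,2,0,2,2,2,0,1,0,1,1,0,1,0,2,2,0,1,1,0,1,0,1,1,1,0,2,2,2,2,0,2,2,2,0,1,0,1,1,0,1],[0,2,0,1,0,0,2,2,0,1,1,0,1,0,1,1,1,0,2,2,1,0,2,0,2,0,1,1,0,2,0,1,0,0,2,2,0,1,1,0,1,0,1,1,1,0,2,2,1,0,2,0,2,0,1,1],[2,2,0,2,2,2,0,1,0,1,1,0,1,2,2,0,2,2,2,0,1,0,1,1,0,1],[2,2,0,2,2,2,0,1,0,1,1,0,1,2,2,0,1,0,1,0,2,1,1,0,2,2,1,0,2,0,2,0,1,1,2,2,0,2,2,2,0,1,0,1,1,0,1,2,2,0,1,0,1,0,2,1,1,0,2,2,1,0,2,0,2,0,1,1],[0,2,0,1,0,2,2,0,2,2,2,0,1,0,1,1,0,1,0,2,0,1,0,2,2,0,2,2,2,0,1,0,1,1,0,1],[0,2,0,1,0,0,2,0,1,0],[0,2,2,0,1,1,0,1,0,1,0,2,2,0,1,1,0,1,0,1,0,2,0,1,0,2,0,2,0,2,2,0,1,1,0,0,2,0,1,0,0,2,2,0,1,1,0,1,0,1,0,2,0,1,0]]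
theorem fx_M11 : fixP 122760 17 N_ON W_M11 [0,15,17,20,1,2] R_M11 = true := by decide +kernel
theorem emb_M11 : ∃ φ : M11.P →* Cfsg.Spor.ON, Function.Injective φ :=
  have : IsSimpleGroup M11.P := have := H7.isM11.1; isoM11.some.symm.isSimpleGroup
  sub_of M11.std fx_M11 (I := I_M11) (by decide +kernel) (y := 6) (i := 0) (by decide +kernel) (by decide +kernel)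

theorem perm_rep {G : Type*} [Group G] [Finite G] [IsSimpleGroup G] (H : Subgroup G) {n : ℕ} (hi : H.index = n) (h1 : n ≠ 1) :
    ∃ f : G →* Equiv.Perm (Fin n), Function.Injective f ∧ MulAction.IsPretransitive f.range (Fin n) := by
  let e : G ⧸ H ≃ Fin n := Finite.equivFinOfCardEq hi
  refine ⟨e.permCongrHom.toMonoidHom.comp (MulAction.toPermHom G (G ⧸ H)), e.permCongrHom.injective.comp ?_, ⟨fun a b => ?_⟩⟩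
  · rw [← MonoidHom.ker_eq_bot_iff, ← Subgroup.normalCore_eq_ker]
    refine (IsSimpleGroup.eq_bot_or_eq_top_of_normal _ inferInstance).resolve_right fun t => h1 ?_
    rw [← hi, Subgroup.index_eq_one, eq_top_iff, ← t]; exact H.normalCore_le
  · obtain ⟨g, hg⟩ := MulAction.exists_smul_eq G (e.symm a) (e.symm b)
    exact ⟨⟨_, g, rfl⟩, (congrArg e hg).trans (e.apply_symm_apply b)⟩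

theorem sub_range {P G Q : Type*} [Group P] [Group G] [Group Q] [IsSimpleGroup P] {φ : P →* G} (h : Function.Injective φ) {f : G →* Q}
    (hf : Function.Injective f) : ∃ K : Subgroup f.range, IsSimpleGroup K ∧ Nat.card K = Nat.card P :=
  have e := MonoidHom.ofInjective (f := f.rangeRestrict.comp φ) ((MonoidHom.ofInjective hf).injective.comp h)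
  ⟨_, e.symm.isSimpleGroup, (Nat.card_congr e.toEquiv).symm⟩

end H8.ON
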