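import Cfsg.Agent.H7.Pres4

/-! H8.ON.Hom: homomorphisms from a subgroup whose order reaches a universal bound. -/

namespace H8.ON
open H7

theorem exists_hom {G K : Type} [Group G] [Group K] {R : List (List ℕ)} {S : List ℕ} {N : ℕ} (h : UB.{0} R S N)
    {gs : ℕ → G} {ks : ℕ → K} (hg : Rels gs R) (hk : Rels ks R) (hc : N ≤ Nat.card (genW gs (sing S))) :
    ∃ φ : genW gs (sing S) →* K, ∀ (w : List ℕ) (hw : ∀ a ∈ w, a ∈ S),
      φ ⟨wev gs w, wev_mem_of_letters fun a ha => gs_mem_sing (hw a ha)⟩ = wev ks w := by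
  have h1 := h _ _ (hg.prod hk)
  rw [genW_nil, IdxLe.bot_iff] at h1
  obtain ⟨hf, h1⟩ := h1
  set Γ := genW (fun a => (gs a, ks a)) (sing S)
  have e : Γ.map (MonoidHom.fst G K) = genW gs (sing S) := map_genW _ _ _
  let f : Γ →* genW gs (sing S) := ((MonoidHom.fst G K).comp Γ.subtype).codRestrict _ fun x => e ▸ ⟨x.1, x.2, rfl⟩
  have hs : Function.Surjective f := fun y => by
    obtain ⟨x, hx, e'⟩ := (e.ge y.2 : y.1 ∈ Γ.map (MonoidHom.fst G K))
    exact ⟨⟨x, hx⟩, Subtype.ext e'⟩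
  have hb : Function.Bijective f := hs.bijective_of_nat_card_le (h1.trans hc)
  refine ⟨((MonoidHom.snd G K).comp Γ.subtype).comp (MulEquiv.ofBijective f hb).symm.toMonoidHom, fun w hw => ?_⟩
  have : (MulEquiv.ofBijective f hb).symm ⟨wev gs w, wev_mem_of_letters fun a ha => gs_mem_sing (hw a ha)⟩ =
      ⟨wev (fun a => (gs a, ks a)) w, wev_mem_of_letters fun a ha => gs_mem_sing (hw a ha)⟩ := by
    rw [MulEquiv.symm_apply_eq]
    exact Subtype.ext (map_wev (MonoidHom.fst G K) (fun a => (gs a, ks a)) w).symm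
  simp only [MonoidHom.comp_apply, MulEquiv.coe_toMonoidHom, this]
  exact map_wev (MonoidHom.snd G K) (fun a => (gs a, ks a)) w

theorem wev_const {K : Type*} [Group K] (c : K) (w : List ℕ) : wev (fun _ => c) w = c ^ w.length := by
  simp [wev]

theorem wev_prod {G K : Type*} [Group G] [Group K] (gs : ℕ → G) (ks : ℕ → K) (w : List ℕ) :
    wev (fun a => (gs a, ks a)) w = (wev gs w, wev ks w) :=
  Prod.ext (map_wev (MonoidHom.fst G K) _ w) (map_wev (MonoidHom.snd G K) _ w)

theorem index_ker_sign {H : Type*} [Group H] (s : H →* ℤˣ) {x : H} (hx : s x = -1) : s.ker.index = 2 := by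
  rw [Subgroup.index_ker, MonoidHom.range_eq_top.2 fun u => ?_]
  · simp
  · rcases Int.units_eq_one_or u with rfl | rfl
    exacts [⟨1, map_one _⟩, ⟨x, hx⟩]

end H8.ON
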