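import Cfsg.Agent.H7.Pres4

/-! H8.ON.Lib: two more ways to derive relators (products of relators; commutation with a product). -/

namespace H8.ON
open H7
universe u

theorem der_cat {R W W' c : List (List ℕ)} {iv : List ℕ} {ng : ℕ} (hiv : invOK R iv ng = true) (h : Der.{u} R W)
    (hW : ltAll ng W = true) (hc : catCert iv ng W W' c = true) : Der.{u} R W' := fun G _ gs hR w hw =>
  Subgroup.mem_bot.1 (catCert_spec (hR.inv hiv) hW hc (A := ⊥) (fun v hv => Subgroup.mem_bot.2 (h G gs hR v hv)) w hw)

/-- an involution `t` commuting with the words `W` commutes with the involution `x`, a product of the `W` -/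
theorem der_comm {R W : List (List ℕ)} {iv x y v : List ℕ} {ng t : ℕ} (hiv : invOK R iv ng = true)
    (h : Der.{u} R (W.map fun w => t :: w ++ t :: winv iv w [])) (ht : Der.{u} R [[t, t]])
    (hx : Der.{u} R [x ++ winv iv y [], x ++ x])
    (hW : ltAll ng W = true) (hy : ltAll ng [y] = true) (hc : catCert iv ng W [y] [v] = true) :
    Der.{u} R [t :: x ++ t :: x] := by
  intro G _ gs hR w hw
  have hi := hR.inv hiv
  have lt : ∀ W, ltAll ng W = true → ∀ w ∈ W, ∀ a ∈ w, gs (nthN iv a) * gs a = 1 := fun W hW w hw a ha =>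
    hi a (Nat.blt_eq.mp (allL_iff.1 (allL_iff.1 hW _ hw) a ha))
  have tt : gs t * gs t = 1 := by simpa using ht G gs hR [t, t] List.mem_cons_self
  have h1 : ∀ w ∈ W, wev gs w ∈ Subgroup.centralizer {gs t} := fun w hw => by
    have := h G gs hR _ (List.mem_map.2 ⟨w, hw, rfl⟩)
    rw [List.cons_append, wev_cons, wev_append, wev_cons, wev_winv (lt W hW w hw), wev_nil, mul_one] at this
    rw [Subgroup.mem_centralizer_singleton_iff]
    have e : gs t * wev gs w * gs t = wev gs w := by
      rw [← mul_inv_eq_one]; simpa [mul_assoc] using this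
    calc wev gs w * gs t = gs t * wev gs w * gs t * gs t := by rw [e]
      _ = gs t * wev gs w := by rw [mul_assoc, tt, mul_one]
  have h2 := Subgroup.mem_centralizer_singleton_iff.1 (catCert_spec hi hW hc h1 y List.mem_cons_self)
  have h3 := hx G gs hR _ List.mem_cons_self
  rw [wev_append, wev_winv (lt _ hy y List.mem_cons_self), wev_nil, mul_one, mul_inv_eq_one] at h3
  have h4 := hx G gs hR (x ++ x) (by simp)
  rw [wev_append] at h4
  rw [List.mem_singleton.1 hw, List.cons_append, wev_cons, wev_append, wev_cons, h3, ← mul_assoc (wev gs y), h2,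
    mul_assoc, ← mul_assoc, tt, one_mul, ← h3, h4]

end H8.ON
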